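import Cfsg.Agent.H10.J3.ChkM0
import Cfsg.Agent.H10.J3.ChkM1
import Cfsg.Agent.H10.J3.ChkM2
import Cfsg.Agent.H10.J3.ChkM3
import Cfsg.Agent.H10.J3.ChkM4
import Cfsg.Agent.H10.J3.TT

set_option autoImplicit false

namespace Cfsg.Agent.H10.J3

open Cfsg.Agent.H10.F4

theorem chkM_all : ∀ e, e < 24480 → chkW tM cM0 cM1 24480 48 e = true := by
  intro e he
  by_cases h0 : e < 2448
  · exact allFrom_sound _ _ _ chkM_0 e (by omega) (by omega)
  by_cases h1 : e < 4896
  · exact allFrom_sound _ _ _ chkM_1 e (by omega) (by omega)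
  by_cases h2 : e < 7344
  · exact allFrom_sound _ _ _ chkM_2 e (by omega) (by omega)
  by_cases h3 : e < 9792
  · exact allFrom_sound _ _ _ chkM_3 e (by omega) (by omega)
  by_cases h4 : e < 12240
  · exact allFrom_sound _ _ _ chkM_4 e (by omega) (by omega)
  by_cases h5 : e < 14688
  · exact allFrom_sound _ _ _ chkM_5 e (by omega) (by omega)
  by_cases h6 : e < 17136
  · exact allFrom_sound _ _ _ chkM_6 e (by omega) (by omega)
  by_cases h7 : e < 19584
  · exact allFrom_sound _ _ _ chkM_7 e (by omega) (by omega)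
  by_cases h8 : e < 22032
  · exact allFrom_sound _ _ _ chkM_8 e (by omega) (by omega)
  exact allFrom_sound _ _ _ chkM_9 e (by omega) (by omega)

theorem Wc_eid : Wc tM 48 = ONE := by decide +kernel
theorem Wc_scal : Wc tM 12901 = Ec tE 4981 ∧ Wc tM 12950 = Ec tE 5102 := by decide +kernel
theorem sift_cM : sM0.1 < 23256 ∧ sM0.2 < 6480 ∧ mulP (Tc tT sM0.1) (Ec tE sM0.2) = cM0 ∧
    sM1.1 < 23256 ∧ sM1.2 < 6480 ∧ mulP (Tc tT sM1.1) (Ec tE sM1.2) = cM1 := by decide +kernel

end Cfsg.Agent.H10.J3
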