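import Cfsg.Agent.H10.J3.TM

set_option autoImplicit false

namespace Cfsg.Agent.H10.J3

open Cfsg.Agent.H10.F4

theorem chkM_0 : allFrom (chkW tM cM0 cM1 24480 48) 0 2448 = true := by
  decide +kernel

theorem chkM_1 : allFrom (chkW tM cM0 cM1 24480 48) 2448 2448 = true := by
  decide +kernel


end Cfsg.Agent.H10.J3
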