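import Cfsg.Agent.H10.J3.TV

set_option autoImplicit false

namespace Cfsg.Agent.H10.J3

open Cfsg.Agent.H10.F4

theorem chkV_0 : allFrom (chkV tV cX cX' cR0) 0 4096 = true := by
  decide +kernel

theorem chkV_1 : allFrom (chkV tV cX cX' cR0) 4096 4096 = true := by
  decide +kernel

theorem chkV_2 : allFrom (chkV tV cX cX' cR0) 8192 4096 = true := by
  decide +kernel

theorem chkV_3 : allFrom (chkV tV cX cX' cR0) 12288 4096 = true := by
  decide +kernel

theorem chkV_4 : allFrom (chkV tV cX cX' cR0) 16384 4096 = true := by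
  decide +kernel

theorem chkV_5 : allFrom (chkV tV cX cX' cR0) 20480 4096 = true := by
  decide +kernel

theorem chkV_6 : allFrom (chkV tV cX cX' cR0) 24576 4096 = true := by
  decide +kernel

theorem chkV_7 : allFrom (chkV tV cX cX' cR0) 28672 4096 = true := by
  decide +kernel


end Cfsg.Agent.H10.J3
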