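import Cfsg.Agent.H10.J3.TV

set_option autoImplicit false

namespace Cfsg.Agent.H10.J3

open Cfsg.Agent.H10.F4

theorem chkV_8 : allFrom (chkV tV cX cX' cR0) 32768 4096 = true := by
  decide +kernel

theorem chkV_9 : allFrom (chkV tV cX cX' cR0) 36864 4096 = true := by
  decide +kernel

theorem chkV_10 : allFrom (chkV tV cX cX' cR0) 40960 4096 = true := by
  decide +kernel

theorem chkV_11 : allFrom (chkV tV cX cX' cR0) 45056 4096 = true := by
  decide +kernel

theorem chkV_12 : allFrom (chkV tV cX cX' cR0) 49152 4096 = true := by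
  decide +kernel

theorem chkV_13 : allFrom (chkV tV cX cX' cR0) 53248 4096 = true := by
  decide +kernel

theorem chkV_14 : allFrom (chkV tV cX cX' cR0) 57344 4096 = true := by
  decide +kernel

theorem chkV_15 : allFrom (chkV tV cX cX' cR0) 61440 4096 = true := by
  decide +kernel


end Cfsg.Agent.H10.J3
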