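import Cfsg.Agent.H10.J3.TV

set_option autoImplicit false

namespace Cfsg.Agent.H10.J3

open Cfsg.Agent.H10.F4

theorem chkV_16 : allFrom (chkV tV cX cX' cR0) 65536 4096 = true := by
  decide +kernel

theorem chkV_17 : allFrom (chkV tV cX cX' cR0) 69632 4096 = true := by
  decide +kernel

theorem chkV_18 : allFrom (chkV tV cX cX' cR0) 73728 4096 = true := by
  decide +kernel

theorem chkV_19 : allFrom (chkV tV cX cX' cR0) 77824 4096 = true := by
  decide +kernel

theorem chkV_20 : allFrom (chkV tV cX cX' cR0) 81920 4096 = true := by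
  decide +kernel

theorem chkV_21 : allFrom (chkV tV cX cX' cR0) 86016 4096 = true := by
  decide +kernel

theorem chkV_22 : allFrom (chkV tV cX cX' cR0) 90112 4096 = true := by
  decide +kernel

theorem chkV_23 : allFrom (chkV tV cX cX' cR0) 94208 4096 = true := by
  decide +kernel


end Cfsg.Agent.H10.J3
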