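import Cfsg.Agent.H10.J3.TV

set_option autoImplicit false

namespace Cfsg.Agent.H10.J3

open Cfsg.Agent.H10.F4

theorem chkV_24 : allFrom (chkV tV cX cX' cR0) 98304 4096 = true := by
  decide +kernel

theorem chkV_25 : allFrom (chkV tV cX cX' cR0) 102400 4096 = true := by
  decide +kernel

theorem chkV_26 : allFrom (chkV tV cX cX' cR0) 106496 4096 = true := by
  decide +kernel

theorem chkV_27 : allFrom (chkV tV cX cX' cR0) 110592 4096 = true := by
  decide +kernel

theorem chkV_28 : allFrom (chkV tV cX cX' cR0) 114688 4096 = true := by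
  decide +kernel

theorem chkV_29 : allFrom (chkV tV cX cX' cR0) 118784 4096 = true := by
  decide +kernel

theorem chkV_30 : allFrom (chkV tV cX cX' cR0) 122880 4096 = true := by
  decide +kernel

theorem chkV_31 : allFrom (chkV tV cX cX' cR0) 126976 4096 = true := by
  decide +kernel


end Cfsg.Agent.H10.J3
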