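import Cfsg.Agent.H10.J3.TV

set_option autoImplicit false

namespace Cfsg.Agent.H10.J3

open Cfsg.Agent.H10.F4

theorem chkV_32 : allFrom (chkV tV cX cX' cR0) 131072 4096 = true := by
  decide +kernel

theorem chkV_33 : allFrom (chkV tV cX cX' cR0) 135168 4096 = true := by
  decide +kernel

theorem chkV_34 : allFrom (chkV tV cX cX' cR0) 139264 4096 = true := by
  decide +kernel

theorem chkV_35 : allFrom (chkV tV cX cX' cR0) 143360 4096 = true := by
  decide +kernel

theorem chkV_36 : allFrom (chkV tV cX cX' cR0) 147456 4096 = true := by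
  decide +kernel

theorem chkV_37 : allFrom (chkV tV cX cX' cR0) 151552 4096 = true := by
  decide +kernel

theorem chkV_38 : allFrom (chkV tV cX cX' cR0) 155648 4096 = true := by
  decide +kernel

theorem chkV_39 : allFrom (chkV tV cX cX' cR0) 159744 4096 = true := by
  decide +kernel


end Cfsg.Agent.H10.J3
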