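import Cfsg.Agent.H10.J3.TV

set_option autoImplicit false

namespace Cfsg.Agent.H10.J3

open Cfsg.Agent.H10.F4

theorem chkV_40 : allFrom (chkV tV cX cX' cR0) 163840 4096 = true := by
  decide +kernel

theorem chkV_41 : allFrom (chkV tV cX cX' cR0) 167936 4096 = true := by
  decide +kernel

theorem chkV_42 : allFrom (chkV tV cX cX' cR0) 172032 4096 = true := by
  decide +kernel

theorem chkV_43 : allFrom (chkV tV cX cX' cR0) 176128 4096 = true := by
  decide +kernel

theorem chkV_44 : allFrom (chkV tV cX cX' cR0) 180224 4096 = true := by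
  decide +kernel

theorem chkV_45 : allFrom (chkV tV cX cX' cR0) 184320 4096 = true := by
  decide +kernel

theorem chkV_46 : allFrom (chkV tV cX cX' cR0) 188416 4096 = true := by
  decide +kernel

theorem chkV_47 : allFrom (chkV tV cX cX' cR0) 192512 4096 = true := by
  decide +kernel


end Cfsg.Agent.H10.J3
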