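import Cfsg.Agent.H10.J3.TV

set_option autoImplicit false

namespace Cfsg.Agent.H10.J3

open Cfsg.Agent.H10.F4

theorem chkV_48 : allFrom (chkV tV cX cX' cR0) 196608 4096 = true := by
  decide +kernel

theorem chkV_49 : allFrom (chkV tV cX cX' cR0) 200704 4096 = true := by
  decide +kernel

theorem chkV_50 : allFrom (chkV tV cX cX' cR0) 204800 4096 = true := by
  decide +kernel

theorem chkV_51 : allFrom (chkV tV cX cX' cR0) 208896 4096 = true := by
  decide +kernel

theorem chkV_52 : allFrom (chkV tV cX cX' cR0) 212992 4096 = true := by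
  decide +kernel

theorem chkV_53 : allFrom (chkV tV cX cX' cR0) 217088 4096 = true := by
  decide +kernel

theorem chkV_54 : allFrom (chkV tV cX cX' cR0) 221184 4096 = true := by
  decide +kernel

theorem chkV_55 : allFrom (chkV tV cX cX' cR0) 225280 4096 = true := by
  decide +kernel


end Cfsg.Agent.H10.J3
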