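import Cfsg.Agent.H10.J3.TV

set_option autoImplicit false

namespace Cfsg.Agent.H10.J3

open Cfsg.Agent.H10.F4

theorem chkV_56 : allFrom (chkV tV cX cX' cR0) 229376 4096 = true := by
  decide +kernel

theorem chkV_57 : allFrom (chkV tV cX cX' cR0) 233472 4096 = true := by
  decide +kernel

theorem chkV_58 : allFrom (chkV tV cX cX' cR0) 237568 4096 = true := by
  decide +kernel

theorem chkV_59 : allFrom (chkV tV cX cX' cR0) 241664 4096 = true := by
  decide +kernel

theorem chkV_60 : allFrom (chkV tV cX cX' cR0) 245760 4096 = true := by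
  decide +kernel

theorem chkV_61 : allFrom (chkV tV cX cX' cR0) 249856 4096 = true := by
  decide +kernel

theorem chkV_62 : allFrom (chkV tV cX cX' cR0) 253952 4096 = true := by
  decide +kernel

theorem chkV_63 : allFrom (chkV tV cX cX' cR0) 258048 4096 = true := by
  decide +kernel


end Cfsg.Agent.H10.J3
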