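import Cfsg.Agent.H10.J3.TM0
import Cfsg.Agent.H10.J3.TM1
import Cfsg.Agent.H10.J3.TM2
import Cfsg.Agent.H10.J3.TM3

set_option autoImplicit false

namespace Cfsg.Agent.H10.J3

open Cfsg.Agent.H10.F4

/-- the flat table of the subgroup `3 × L₂(16):2` (24480 entries) -/
noncomputable def tM : Tree :=
  (.node (.node (.node (.node (.node (.leaf lM0) (.leaf lM16)) (.leaf lM8)) (.node (.node (.leaf lM4) (.leaf lM20)) (.leaf lM12))) (.node (.node (.node (.leaf lM2) (.leaf lM18)) (.leaf lM10)) (.node (.node (.leaf lM6) (.leaf lM22)) (.leaf lM14)))) (.node (.node (.node (.node (.leaf lM1) (.leaf lM17)) (.leaf lM9)) (.node (.node (.leaf lM5) (.leaf lM21)) (.leaf lM13))) (.node (.node (.node (.leaf lM3) (.leaf lM19)) (.leaf lM11)) (.node (.node (.leaf lM7) (.leaf lM23)) (.leaf lM15)))))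

/-- first generator of the subgroup -/
def cM0 : Nat := 4800226159764441182181430019493000173481539404741
/-- second generator of the subgroup -/
def cM1 : Nat := 1876324224970441976525327293609601295086960696171
/-- where the first generator sifts to -/
def sM0 : Nat × Nat := (303, 2368)
/-- where the second generator sifts to -/
def sM1 : Nat × Nat := (1005, 6058)

end Cfsg.Agent.H10.J3
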